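import Cfsg.Agent.Lib.KnownSimple.MultM.J3L.Cert0
import Cfsg.Agent.Lib.KnownSimple.MultM.L216J.Bound
import Cfsg.Agent.Lib.KnownSimple.MultC.Nest

/-!
# A bound for the order of the presented group
-/

set_option autoImplicit false

namespace Cfsg.Agent.Lib.KnownSimple.MultM.J3L

open Cfsg Cfsg.Spor Cfsg.Agent.Lib.Compute Cfsg.Agent.Lib.KnownSimple.PE Cfsg.Agent.Lib.KnownSimple.Leech
open Cfsg.Agent.Lib.KnownSimple Cfsg.Agent.Lib.KnownSimple.AutRigid Cfsg.Agent.Lib.KnownSimple.Pres

open Cfsg.Agent.Lib.KnownSimple.MultC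

set_option maxHeartbeats 0 in
theorem hPs : IsPres 5 v (stdRels S) := isPres_std S (by decide +kernel)
set_option maxHeartbeats 0 in
theorem hPU : IsPres 4 Cfsg.Agent.Lib.KnownSimple.MultM.L216J.v (stdRels Cfsg.Agent.Lib.KnownSimple.MultM.L216J.S) := isPres_std Cfsg.Agent.Lib.KnownSimple.MultM.L216J.S (by decide +kernel)
theorem hrelU : ∀ r ∈ stdRels Cfsg.Agent.Lib.KnownSimple.MultM.L216J.S, ev v r = 1 := by
  have h : (stdRels Cfsg.Agent.Lib.KnownSimple.MultM.L216J.S).all (fun r => (stdRels S).contains r) = true := by decide +kernel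
  intro r hr
  have h1 := List.all_eq_true.1 h r hr
  exact hPs.hrel r (by simpa using h1)
instance finLS : Finite (Subgroup.closure (v '' {g | g < 4})) := finite_LS hPU hrelU
set_option maxRecDepth 1000000 in
theorem bd0 : Finite (Subgroup.closure (v '' {g | g < 5})) ∧
    Nat.card (Subgroup.closure (v '' {g | g < 5})) ≤ 12312 * Nat.card (Subgroup.closure (v '' {g | g < 4})) := by
  exact S.step C0 (Subgroup.closure (v '' {g | g < 4})) (K := K0) (n := 12312) (ng := 5) (by decide +kernel) (fun _ => rfl) words0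
    (fun a ha => Subgroup.subset_closure ⟨a, by simpa [C0, Nat.blt_eq] using ha, rfl⟩) (by decide +kernel) facts0 (by norm_num) (by decide +kernel) entries0

theorem finite_top : Finite P ∧ Nat.card P ≤ 12312 * Nat.card (Subgroup.closure (v '' {g | g < 4})) :=
  finite_of_top S.closure_top bd0

instance instP : Finite P := finite_top.1

theorem finite_P : Finite P ∧ Nat.card P ≤ 50232960 := by
  refine ⟨finite_top.1, finite_top.2.trans ?_⟩
  have h1 := card_LS_le hPU hrelU
  have h2 := Cfsg.Agent.Lib.KnownSimple.MultM.L216J.finite_P.2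
  calc _ ≤ 12312 * 4080 := Nat.mul_le_mul_left _ (h1.trans h2)
    _ = _ := by norm_num

end Cfsg.Agent.Lib.KnownSimple.MultM.J3L
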