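import Cfsg.Agent.Lib.KnownSimple.MultM.J3L.Fact0_0
import Cfsg.Agent.Lib.KnownSimple.MultM.J3L.Fact0_1
import Cfsg.Agent.Lib.KnownSimple.MultM.J3L.Fact0_2

/-!
# A coset enumeration
-/

set_option autoImplicit false

namespace Cfsg.Agent.Lib.KnownSimple.MultM.J3L

open Cfsg Cfsg.Spor Cfsg.Agent.Lib.Compute Cfsg.Agent.Lib.KnownSimple.PE Cfsg.Agent.Lib.KnownSimple.Leech
open Cfsg.Agent.Lib.KnownSimple Cfsg.Agent.Lib.KnownSimple.AutRigid Cfsg.Agent.Lib.KnownSimple.Pres


theorem facts0 : allBelow (Cert.factOK C0) K0 = true :=
  allBelow_of_pad (m := 87) (s := 2584) (by norm_num) (fun c hc => by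
    interval_cases c
    · exact fc0_0
    · exact fc0_1
    · exact fc0_2
    · exact fc0_3
    · exact fc0_4
    · exact fc0_5
    · exact fc0_6
    · exact fc0_7
    · exact fc0_8
    · exact fc0_9
    · exact fc0_10
    · exact fc0_11
    · exact fc0_12
    · exact fc0_13
    · exact fc0_14
    · exact fc0_15
    · exact fc0_16
    · exact fc0_17
    · exact fc0_18
    · exact fc0_19
    · exact fc0_20
    · exact fc0_21
    · exact fc0_22
    · exact fc0_23
    · exact fc0_24
    · exact fc0_25
    · exact fc0_26
    · exact fc0_27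
    · exact fc0_28
    · exact fc0_29
    · exact fc0_30
    · exact fc0_31
    · exact fc0_32
    · exact fc0_33
    · exact fc0_34
    · exact fc0_35
    · exact fc0_36
    · exact fc0_37
    · exact fc0_38
    · exact fc0_39
    · exact fc0_40
    · exact fc0_41
    · exact fc0_42
    · exact fc0_43
    · exact fc0_44
    · exact fc0_45
    · exact fc0_46
    · exact fc0_47
    · exact fc0_48
    · exact fc0_49
    · exact fc0_50
    · exact fc0_51
    · exact fc0_52
    · exact fc0_53
    · exact fc0_54
    · exact fc0_55
    · exact fc0_56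
    · exact fc0_57
    · exact fc0_58
    · exact fc0_59
    · exact fc0_60
    · exact fc0_61
    · exact fc0_62
    · exact fc0_63
    · exact fc0_64
    · exact fc0_65
    · exact fc0_66
    · exact fc0_67
    · exact fc0_68
    · exact fc0_69
    · exact fc0_70
    · exact fc0_71
    · exact fc0_72
    · exact fc0_73
    · exact fc0_74
    · exact fc0_75
    · exact fc0_76
    · exact fc0_77
    · exact fc0_78
    · exact fc0_79
    · exact fc0_80
    · exact fc0_81
    · exact fc0_82
    · exact fc0_83
    · exact fc0_84
    · exact fc0_85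
    · exact fc0_86
  )
set_option maxHeartbeats 0 in
set_option maxRecDepth 100000 in
theorem ec0_0 : chunk (padB 12312 (fun i => allBelow (fun g => Cert.entry C0 12312 K0 g i) 5)) 2584 0 = true := by decide +kernel
set_option maxHeartbeats 0 in
set_option maxRecDepth 100000 in
theorem ec0_1 : chunk (padB 12312 (fun i => allBelow (fun g => Cert.entry C0 12312 K0 g i) 5)) 2584 1 = true := by decide +kernel
set_option maxHeartbeats 0 in
set_option maxRecDepth 100000 in
theorem ec0_2 : chunk (padB 12312 (fun i => allBelow (fun g => Cert.entry C0 12312 K0 g i) 5)) 2584 2 = true := by decide +kernel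
set_option maxHeartbeats 0 in
set_option maxRecDepth 100000 in
theorem ec0_3 : chunk (padB 12312 (fun i => allBelow (fun g => Cert.entry C0 12312 K0 g i) 5)) 2584 3 = true := by decide +kernel
set_option maxHeartbeats 0 in
set_option maxRecDepth 100000 in
theorem ec0_4 : chunk (padB 12312 (fun i => allBelow (fun g => Cert.entry C0 12312 K0 g i) 5)) 2584 4 = true := by decide +kernel

theorem entries0 : allBelow (fun i => allBelow (fun g => Cert.entry C0 12312 K0 g i) 5) 12312 = true :=
  allBelow_of_pad (m := 5) (s := 2584) (by norm_num) (fun c hc => by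
    interval_cases c
    · exact ec0_0
    · exact ec0_1
    · exact ec0_2
    · exact ec0_3
    · exact ec0_4
  )

end Cfsg.Agent.Lib.KnownSimple.MultM.J3L
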