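import Cfsg.Agent.Lib.KnownSimple.MultM.J3L.NatA

/-!
# The natural representation
-/

set_option autoImplicit false

namespace Cfsg.Agent.Lib.KnownSimple.MultM.J3L

open Cfsg Cfsg.Spor Cfsg.Agent.Lib.Compute Cfsg.Agent.Lib.KnownSimple.PE Cfsg.Agent.Lib.KnownSimple.Leech
open Cfsg.Agent.Lib.KnownSimple Cfsg.Agent.Lib.KnownSimple.AutRigid Cfsg.Agent.Lib.KnownSimple.Pres
open Cfsg.Agent.Lib.KnownSimple.MultC


set_option maxHeartbeats 0 in
set_option maxRecDepth 100000 in
theorem vn16 : chunk (padB 23256 fAll) 512 16 = true := by decide +kernel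
set_option maxHeartbeats 0 in
set_option maxRecDepth 100000 in
theorem vn17 : chunk (padB 23256 fAll) 512 17 = true := by decide +kernel
set_option maxHeartbeats 0 in
set_option maxRecDepth 100000 in
theorem vn18 : chunk (padB 23256 fAll) 512 18 = true := by decide +kernel
set_option maxHeartbeats 0 in
set_option maxRecDepth 100000 in
theorem vn19 : chunk (padB 23256 fAll) 512 19 = true := by decide +kernel
set_option maxHeartbeats 0 in
set_option maxRecDepth 100000 in
theorem vn20 : chunk (padB 23256 fAll) 512 20 = true := by decide +kernel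
set_option maxHeartbeats 0 in
set_option maxRecDepth 100000 in
theorem vn21 : chunk (padB 23256 fAll) 512 21 = true := by decide +kernel
set_option maxHeartbeats 0 in
set_option maxRecDepth 100000 in
theorem vn22 : chunk (padB 23256 fAll) 512 22 = true := by decide +kernel
set_option maxHeartbeats 0 in
set_option maxRecDepth 100000 in
theorem vn23 : chunk (padB 23256 fAll) 512 23 = true := by decide +kernel

end Cfsg.Agent.Lib.KnownSimple.MultM.J3L
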