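import Cfsg.Agent.Lib.KnownSimple.MultM.J3L.NatA

/-!
# The natural representation
-/

set_option autoImplicit false

namespace Cfsg.Agent.Lib.KnownSimple.MultM.J3L

open Cfsg Cfsg.Spor Cfsg.Agent.Lib.Compute Cfsg.Agent.Lib.KnownSimple.PE Cfsg.Agent.Lib.KnownSimple.Leech
open Cfsg.Agent.Lib.KnownSimple Cfsg.Agent.Lib.KnownSimple.AutRigid Cfsg.Agent.Lib.KnownSimple.Pres
open Cfsg.Agent.Lib.KnownSimple.MultC


set_option maxHeartbeats 0 in
set_option maxRecDepth 100000 in
theorem vn24 : chunk (padB 23256 fAll) 512 24 = true := by decide +kernel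
set_option maxHeartbeats 0 in
set_option maxRecDepth 100000 in
theorem vn25 : chunk (padB 23256 fAll) 512 25 = true := by decide +kernel
set_option maxHeartbeats 0 in
set_option maxRecDepth 100000 in
theorem vn26 : chunk (padB 23256 fAll) 512 26 = true := by decide +kernel
set_option maxHeartbeats 0 in
set_option maxRecDepth 100000 in
theorem vn27 : chunk (padB 23256 fAll) 512 27 = true := by decide +kernel
set_option maxHeartbeats 0 in
set_option maxRecDepth 100000 in
theorem vn28 : chunk (padB 23256 fAll) 512 28 = true := by decide +kernel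
set_option maxHeartbeats 0 in
set_option maxRecDepth 100000 in
theorem vn29 : chunk (padB 23256 fAll) 512 29 = true := by decide +kernel
set_option maxHeartbeats 0 in
set_option maxRecDepth 100000 in
theorem vn30 : chunk (padB 23256 fAll) 512 30 = true := by decide +kernel
set_option maxHeartbeats 0 in
set_option maxRecDepth 100000 in
theorem vn31 : chunk (padB 23256 fAll) 512 31 = true := by decide +kernel

end Cfsg.Agent.Lib.KnownSimple.MultM.J3L
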