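import Cfsg.Agent.Lib.KnownSimple.MultM.J3L.NatA

/-!
# The natural representation
-/

set_option autoImplicit false

namespace Cfsg.Agent.Lib.KnownSimple.MultM.J3L

open Cfsg Cfsg.Spor Cfsg.Agent.Lib.Compute Cfsg.Agent.Lib.KnownSimple.PE Cfsg.Agent.Lib.KnownSimple.Leech
open Cfsg.Agent.Lib.KnownSimple Cfsg.Agent.Lib.KnownSimple.AutRigid Cfsg.Agent.Lib.KnownSimple.Pres
open Cfsg.Agent.Lib.KnownSimple.MultC


set_option maxHeartbeats 0 in
set_option maxRecDepth 100000 in
theorem vn32 : chunk (padB 23256 fAll) 512 32 = true := by decide +kernel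
set_option maxHeartbeats 0 in
set_option maxRecDepth 100000 in
theorem vn33 : chunk (padB 23256 fAll) 512 33 = true := by decide +kernel
set_option maxHeartbeats 0 in
set_option maxRecDepth 100000 in
theorem vn34 : chunk (padB 23256 fAll) 512 34 = true := by decide +kernel
set_option maxHeartbeats 0 in
set_option maxRecDepth 100000 in
theorem vn35 : chunk (padB 23256 fAll) 512 35 = true := by decide +kernel
set_option maxHeartbeats 0 in
set_option maxRecDepth 100000 in
theorem vn36 : chunk (padB 23256 fAll) 512 36 = true := by decide +kernel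
set_option maxHeartbeats 0 in
set_option maxRecDepth 100000 in
theorem vn37 : chunk (padB 23256 fAll) 512 37 = true := by decide +kernel
set_option maxHeartbeats 0 in
set_option maxRecDepth 100000 in
theorem vn38 : chunk (padB 23256 fAll) 512 38 = true := by decide +kernel
set_option maxHeartbeats 0 in
set_option maxRecDepth 100000 in
theorem vn39 : chunk (padB 23256 fAll) 512 39 = true := by decide +kernel

end Cfsg.Agent.Lib.KnownSimple.MultM.J3L
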