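import Cfsg.Agent.Lib.KnownSimple.MultM.J3L.NatC0
import Cfsg.Agent.Lib.KnownSimple.MultM.J3L.NatC1
import Cfsg.Agent.Lib.KnownSimple.MultM.J3L.NatC2
import Cfsg.Agent.Lib.KnownSimple.MultM.J3L.NatC3
import Cfsg.Agent.Lib.KnownSimple.MultM.J3L.NatC4
import Cfsg.Agent.Lib.KnownSimple.MultM.J3L.NatC5

/-!
# The natural representation
-/

set_option autoImplicit false

namespace Cfsg.Agent.Lib.KnownSimple.MultM.J3L

open Cfsg Cfsg.Spor Cfsg.Agent.Lib.Compute Cfsg.Agent.Lib.KnownSimple.PE Cfsg.Agent.Lib.KnownSimple.Leech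
open Cfsg.Agent.Lib.KnownSimple Cfsg.Agent.Lib.KnownSimple.AutRigid Cfsg.Agent.Lib.KnownSimple.Pres
open Cfsg.Agent.Lib.KnownSimple.MultC


set_option maxHeartbeats 0 in
set_option maxRecDepth 100000 in
theorem hAll : allBelow fAll N0 = true :=
  allBelow_of_pad (m := 46) (s := 512) (by norm_num) (fun c hc => by
    interval_cases c
    · exact vn0
    · exact vn1
    · exact vn2
    · exact vn3
    · exact vn4
    · exact vn5
    · exact vn6
    · exact vn7
    · exact vn8
    · exact vn9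
    · exact vn10
    · exact vn11
    · exact vn12
    · exact vn13
    · exact vn14
    · exact vn15
    · exact vn16
    · exact vn17
    · exact vn18
    · exact vn19
    · exact vn20
    · exact vn21
    · exact vn22
    · exact vn23
    · exact vn24
    · exact vn25
    · exact vn26
    · exact vn27
    · exact vn28
    · exact vn29
    · exact vn30
    · exact vn31
    · exact vn32
    · exact vn33
    · exact vn34
    · exact vn35
    · exact vn36
    · exact vn37
    · exact vn38
    · exact vn39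
    · exact vn40
    · exact vn41
    · exact vn42
    · exact vn43
    · exact vn44
    · exact vn45
  )
theorem hAll' (i : ℕ) (hi : i < N0) : fCo i = true ∧ fLo i = true ∧ fOl i = true ∧ fNe i = true := by
  have h := (allBelow_iff _ _).1 hAll i hi
  unfold fAll at h
  cases h1 : fCo i with
  | false =>
    rw [h1, bcond_false] at h
    exact Bool.noConfusion h
  | true =>
    rw [h1, bcond_true] at h
    cases h2 : fLo i with
    | false =>
      rw [h2, bcond_false] at h
      exact Bool.noConfusion h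
    | true =>
      rw [h2, bcond_true] at h
      cases h3 : fOl i with
      | false =>
        rw [h3, bcond_false] at h
        exact Bool.noConfusion h
      | true =>
        rw [h3, bcond_true] at h
        exact ⟨rfl, rfl, rfl, h⟩
theorem hCN : chkCoset τN d N0 = true := by
  unfold chkCoset
  rw [allBelow_iff]
  intro i hi
  exact (hAll' i hi).1
/-- The natural table. -/
noncomputable def CN : Coset d N0 := mkCoset τN hCN
set_option maxHeartbeats 0 in
theorem hok : ∀ r ∈ stdRels S, ∀ l ∈ r, l < 2 * d := words_of_chk (by decide +kernel)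
theorem hl0 : ∀ r ∈ stdRels S, ∀ i, i < N0 → actW CN.τ r i = i := by
  intro r hr i hi
  exact Nat.eq_of_beq_eq_true (List.all_eq_true.1 (hAll' i hi).2.1 r hr)
theorem ex0 : ∃ ρ : P →* Equiv.Perm (Fin N0), ∀ x, x < d → ρ (v x) = (CN.p x)⁻¹ := exists_rho hP CN hok hl0
/-- The natural representation. -/
noncomputable def ρ0 : P →* Equiv.Perm (Fin N0) := ex0.choose
theorem hρ0 : ∀ x, x < d → ρ0 (v x) = (CN.p x)⁻¹ := ex0.choose_spec
/-- The natural representation. -/
noncomputable def ψ : P →* Equiv.Perm (Fin N0) := toX EN ρ0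
theorem hchkO : allBelow (fun x => allBelow (fun i => Nat.beq (cevL TH (lg [] wOL x) i) (actW CN.τ (invW [2 * x]) i)) N0) d = true := by
  rw [allBelow_iff]
  intro x hx
  rw [allBelow_iff]
  intro i hi
  exact (allBelow_iff _ _).1 (hAll' i hi).2.2.1 x hx
theorem hchkN : allBelow (fun k => allBelow (fun i => Nat.beq (TH k i) (actW CN.τ (invW (lg [] wNL k)) i)) N0) 2 = true := by
  rw [allBelow_iff]
  intro k hk
  rw [allBelow_iff]
  intro i hi
  exact (allBelow_iff _ _).1 (hAll' i hi).2.2.2 k hk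
theorem hwN : ∀ k, k < 2 → ∀ l ∈ lg [] wNL k, l < 2 * d := by
  have h : allBelow (fun k => (lg [] wNL k).all fun l => Nat.blt l (2 * d)) 2 = true := by decide +kernel
  intro k hk l hl
  have h1 := List.all_eq_true.1 ((allBelow_iff _ _).1 h k hk) l hl
  simpa [Nat.blt_eq] using h1
theorem hmem : ∀ x, x < d → ψ (v x) ∈ Cfsg.Agent.Lib.KnownSimple.J3.H := by
  intro x hx
  have hw : ∀ l ∈ [2 * x], l < 2 * d := by
    intro l hl
    rw [List.mem_singleton] at hl
    omega
  have h1 := code_list EN (lp := lpH) (T := TH) code_H (lg [] wOL x)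
  have e1 := toX_word EN CN hρ0 hw h1 ((allBelow_iff _ _).1 hchkO x hx)
  have e2 : ev v [2 * x] = v x := by
    rw [ev_cons, ev_nil, mul_one]
    exact lv_two v x
  rw [e2] at e1
  show toX EN ρ0 (v x) ∈ Cfsg.Agent.Lib.KnownSimple.J3.H
  rw [← e1]
  apply Subgroup.list_prod_mem
  intro a ha
  obtain ⟨k, _, rfl⟩ := List.mem_map.1 ha
  exact lpH_mem k
theorem hR (k : ℕ) (hk : k < 2) : lpH k ∈ ψ.range := by
  have e1 := toX_word EN CN hρ0 (hwN k hk) (code_H k) ((allBelow_iff _ _).1 hchkN k hk)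
  exact ⟨_, e1.symm⟩
theorem hTr : ∀ t ∈ Cfsg.Agent.Lib.KnownSimple.J3.Sx, t ∈ ψ.range := by
  intro t ht
  simp only [Cfsg.Agent.Lib.KnownSimple.J3.Sx, Set.mem_insert_iff, Set.mem_singleton_iff] at ht
  rcases ht with rfl | rfl
  · exact hR 0 (by norm_num)
  · exact hR 1 (by norm_num)
theorem hT : ∀ σ ∈ Cfsg.Agent.Lib.KnownSimple.J3.H, σ ∈ Subgroup.closure Cfsg.Agent.Lib.KnownSimple.J3.Sx := by
  intro σ hσ
  rw [Cfsg.Agent.Lib.KnownSimple.J3.H_eq] at hσ
  exact hσ

theorem hle : Nat.card P ≤ Nat.card ↥Cfsg.Agent.Lib.KnownSimple.J3.H := by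
  rw [Cfsg.Agent.Lib.KnownSimple.J3.card_H]
  exact finite_P.2
theorem ex_e : ∃ e : P ≃* ↥Cfsg.Agent.Lib.KnownSimple.J3.H, ∀ u, (e u : Equiv.Perm (Fin N0)) = ψ u := exists_equiv hP ψ Cfsg.Agent.Lib.KnownSimple.J3.H hmem _ hT hTr hle
/-- The isomorphism. -/
noncomputable def e : P ≃* ↥Cfsg.Agent.Lib.KnownSimple.J3.H := ex_e.choose
theorem he : ∀ u, (e u : Equiv.Perm (Fin N0)) = ψ u := ex_e.choose_spec
theorem hψinj : Function.Injective ψ := fun a b h => e.injective (Subtype.ext (by rw [he, he, h]))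
theorem hρ0inj : Function.Injective ρ0 := by
  intro a b hab
  apply hψinj
  show toX EN ρ0 a = toX EN ρ0 b
  have : ∀ u, toX EN ρ0 u = (Equiv.permCongrHom (finEquiv EN)).toMonoidHom (ρ0 u) := fun _ => rfl
  rw [this, this, hab]
theorem card_P : Nat.card P = 50232960 := by
  rw [Nat.card_congr e.toEquiv, Cfsg.Agent.Lib.KnownSimple.J3.card_H]

end Cfsg.Agent.Lib.KnownSimple.MultM.J3L
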