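import Cfsg.Agent.Lib.KnownSimple.MultM.J3L.Bound
import Cfsg.Agent.Lib.KnownSimple.MultM.J3L.NatD
import Cfsg.Agent.Lib.KnownSimple.J3.Main

/-!
# The natural representation
-/

set_option autoImplicit false

namespace Cfsg.Agent.Lib.KnownSimple.MultM.J3L

open Cfsg Cfsg.Spor Cfsg.Agent.Lib.Compute Cfsg.Agent.Lib.KnownSimple.PE Cfsg.Agent.Lib.KnownSimple.Leech
open Cfsg.Agent.Lib.KnownSimple Cfsg.Agent.Lib.KnownSimple.AutRigid Cfsg.Agent.Lib.KnownSimple.Pres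
open Cfsg.Agent.Lib.KnownSimple.MultC


abbrev d : ℕ := 5
abbrev N0 : ℕ := 23256
/-- The encoding. -/
abbrev EN : Enc (Fin N0) N0 := encFin N0
theorem hP : IsPres d v (stdRels S) := hPs
/-- The table of the letters. -/
noncomputable abbrev τN : ℕ → ℕ → ℕ := tauP d tn
/-- The generators. -/
noncomputable def lpH : ℕ → Equiv.Perm (Fin N0)
  | 0 => (Cfsg.Agent.Lib.KnownSimple.J3.D0 : Equiv.Perm (Fin N0))
  | _ => (Cfsg.Agent.Lib.KnownSimple.J3.D1 : Equiv.Perm (Fin N0))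
/-- The codes of the generators. -/
noncomputable def TH : ℕ → ℕ → ℕ
  | 0 => Cfsg.Agent.Lib.KnownSimple.J3.T 19
  | _ => Cfsg.Agent.Lib.KnownSimple.J3.T 35
theorem code_H : ∀ k, EN.IsCode (lpH k) (TH k)
  | 0 => Cfsg.Agent.Lib.KnownSimple.J3.code_D0
  | _ + 1 => Cfsg.Agent.Lib.KnownSimple.J3.code_D1
theorem lpH_mem : ∀ k, lpH k ∈ Cfsg.Agent.Lib.KnownSimple.J3.H
  | 0 => Cfsg.Agent.Lib.KnownSimple.J3.D0.2
  | _ + 1 => Cfsg.Agent.Lib.KnownSimple.J3.D1.2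

/-- The letters in terms of the earlier letters. -/
def wOL : List (List ℕ) := [[0,0,0,0,0,0,1,0,1,0,1,0,0,0,1,0,0,1,0,1,0,0,0,0,0,0,1,0,0,1,0,0,0,0,0,1,0],
  [1,0,0,1,0,0,1,0,1,0,0,0,0,0,0,1,0,0,0,1,0,1,0,1,0,0,1,0,1,0,0],
  [0,1,0,1,0,0,0,0,1,0,0,0,1,0,0,0,0,1,0,0,1,0,1,0,1,0,1,0,0,0,0,0,0,0,0],
  [1,0,0,0,0,0,1,0,0,1,0,0,1,0,1,0,0,1,0,1,0,1,0,1,0,1,0,0,0,0],
  [1,0,1,0,0,0,0,0,1,0,1,0,0,0,0,0,0,0,0,1,0,0,1,0,1,0,0,0,1,0,0,0,0,1,0]]
/-- The earlier letters in terms of the letters. -/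
def wNL : List (List ℕ) := [[2,8,6,0,8,4,8,6,0,6,2,8,4,8],
  [8,6,2,8,2,0,8,2,6,2,8]]
/-- The tests at a point. -/
noncomputable def fCo (i : ℕ) : Bool :=
  allBelow (fun l => bcond (Nat.blt (τN l i) N0) (Nat.beq (τN (invL l) (τN l i)) i) false) (2 * d)
/-- The tests at a point. -/
noncomputable def fLo (i : ℕ) : Bool := (stdRels S).all fun r => Nat.beq (actW τN r i) i
/-- The tests at a point. -/
noncomputable def fOl (i : ℕ) : Bool :=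
  allBelow (fun x => Nat.beq (cevL TH (lg [] wOL x) i) (actW τN (invW [2 * x]) i)) d
/-- The tests at a point. -/
noncomputable def fNe (i : ℕ) : Bool :=
  allBelow (fun k => Nat.beq (TH k i) (actW τN (invW (lg [] wNL k)) i)) 2
/-- The tests at a point. -/
noncomputable def fAll (i : ℕ) : Bool := bcond (fCo i) (bcond (fLo i) (bcond (fOl i) (fNe i) false) false) false

end Cfsg.Agent.Lib.KnownSimple.MultM.J3L
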