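import Cfsg.Agent.Lib.KnownSimple.MultM.J3L.NatA

/-!
# The natural representation
-/

set_option autoImplicit false

namespace Cfsg.Agent.Lib.KnownSimple.MultM.J3L

open Cfsg Cfsg.Spor Cfsg.Agent.Lib.Compute Cfsg.Agent.Lib.KnownSimple.PE Cfsg.Agent.Lib.KnownSimple.Leech
open Cfsg.Agent.Lib.KnownSimple Cfsg.Agent.Lib.KnownSimple.AutRigid Cfsg.Agent.Lib.KnownSimple.Pres
open Cfsg.Agent.Lib.KnownSimple.MultC


set_option maxHeartbeats 0 in
set_option maxRecDepth 100000 in
theorem vn0 : chunk (padB 23256 fAll) 512 0 = true := by decide +kernel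
set_option maxHeartbeats 0 in
set_option maxRecDepth 100000 in
theorem vn1 : chunk (padB 23256 fAll) 512 1 = true := by decide +kernel
set_option maxHeartbeats 0 in
set_option maxRecDepth 100000 in
theorem vn2 : chunk (padB 23256 fAll) 512 2 = true := by decide +kernel
set_option maxHeartbeats 0 in
set_option maxRecDepth 100000 in
theorem vn3 : chunk (padB 23256 fAll) 512 3 = true := by decide +kernel
set_option maxHeartbeats 0 in
set_option maxRecDepth 100000 in
theorem vn4 : chunk (padB 23256 fAll) 512 4 = true := by decide +kernel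
set_option maxHeartbeats 0 in
set_option maxRecDepth 100000 in
theorem vn5 : chunk (padB 23256 fAll) 512 5 = true := by decide +kernel
set_option maxHeartbeats 0 in
set_option maxRecDepth 100000 in
theorem vn6 : chunk (padB 23256 fAll) 512 6 = true := by decide +kernel
set_option maxHeartbeats 0 in
set_option maxRecDepth 100000 in
theorem vn7 : chunk (padB 23256 fAll) 512 7 = true := by decide +kernel

end Cfsg.Agent.Lib.KnownSimple.MultM.J3L
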